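import Cfsg.Agent.H879.SpNormalizer
import Cfsg.Agent.H879.UnitSympTwo
set_option linter.all false

/-!
# Overgroups of the unitary group in the symplectic group, `m ≥ 4`

The argument of `H879/UnitSymp`, `H879/UnitSympTwo` (helper879) with a sharper lemma on isotropic
vectors, valid from dimension eight on.
-/

set_option autoImplicit false
set_option linter.unusedSectionVars false
set_option linter.unusedSimpArgs false

namespace Cfsg.Agent.H875.UnitSp

open Module Cfsg.Agent.H879 Cfsg.Agent.H879.UnitSymp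

variable {F V : Type*} [Field F] [AddCommGroup V] [Module F V]

/-- `M` is a group of isometries of `f` with all the unitary transvections. -/
structure Hyp8 (f : V →ₗ[F] V →ₗ[F] F) (κ : V →ₗ[F] V) (d : F) (M : Subgroup (V ≃ₗ[F] V)) :
    Prop where
  alt : ∀ x, f x x = 0
  ndeg : ∀ x, x ≠ 0 → ∃ y, f x y ≠ 0
  two : (2 : F) ≠ 0
  sq : ∀ x, κ (κ x) = d • x
  nsq : ∀ c : F, c * c ≠ d
  norm : ∀ e : F, ∃ α β : F, α * α - d * (β * β) = e
  sumsq : ∀ e : F, ∃ α β : F, α * α + β * β = e
  adj : ∀ x y, f (κ x) y = - f x (κ y)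
  dim : 8 ≤ finrank F V
  pres : ∀ g ∈ M, ∀ x y, f (g x) (g y) = f x y
  tv : ∀ v c, f (κ v) v = 0 → Has M (ut f κ d v c)

variable {f : V →ₗ[F] V →ₗ[F] F} {κ : V →ₗ[F] V} {d : F} {M : Subgroup (V ≃ₗ[F] V)}

namespace Hyp8

variable (h : Hyp8 f κ d M)
include h

theorem skew (x y : V) : f x y = - f y x := by
  have := h.alt (x + y)
  simp only [map_add, LinearMap.add_apply, h.alt, zero_add, add_zero] at this
  exact eq_neg_of_add_eq_zero_right this

theorem kk (x y : V) : f (κ x) (κ y) = - (d * f x y) := by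
  rw [h.adj, h.sq, map_smul, smul_eq_mul]

theorem symm (x y : V) : f (κ x) y = f (κ y) x := by
  rw [h.adj, h.skew x, neg_neg]

theorem d_ne : d ≠ 0 := by
  rintro rfl
  exact h.nsq 0 (mul_zero 0)

theorem finite : FiniteDimensional F V :=
  Module.finite_of_finrank_pos (by have := h.dim; omega)

theorem pres_inv {g : V ≃ₗ[F] V} (hg : g ∈ M) (x y : V) : f (g⁻¹ x) y = f x (g y) := by
  have h1 := h.pres g hg (g⁻¹ x) y
  rw [apply_inv_apply] at h1
  exact h1.symm

theorem q_add (x y : V) : f (κ (x + y)) (x + y) = f (κ x) x + f (κ y) y + 2 * f (κ x) y := by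
  simp only [map_add, LinearMap.add_apply]
  rw [h.symm y x]
  ring

theorem q_smul (c : F) (x : V) : f (κ (c • x)) (c • x) = c * c * f (κ x) x := by
  simp only [map_smul, LinearMap.smul_apply, smul_eq_mul]
  ring

theorem q_comb (α β : F) (x : V) :
    f (κ (α • x + β • κ x)) (α • x + β • κ x) = (α * α - d * (β * β)) * f (κ x) x := by
  simp only [map_add, map_smul, LinearMap.add_apply, LinearMap.smul_apply, smul_eq_mul, h.sq,
    h.alt, h.skew x (κ x)]
  ring

theorem quad_ne {p p' : F} (hp : p ≠ 0 ∨ p' ≠ 0) : p * p * d - p' * p' ≠ 0 := by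
  intro h0
  by_cases hp0 : p = 0
  · subst hp0
    rcases hp with hp | hp
    · exact hp rfl
    · have : p' * p' = 0 := by linear_combination -h0
      exact hp (mul_self_eq_zero.1 this)
  · apply h.nsq (p' / p)
    field_simp
    linear_combination -h0

/-- Isotropic vectors with prescribed products with two vectors and their images. -/
theorem exists_iso (x₁ x₂ z₀ : V) (hne : f x₁ z₀ ≠ 0 ∨ f x₂ z₀ ≠ 0) : ∃ z, f (κ z) z = 0 ∧
    f x₁ z = f x₁ z₀ ∧ f (κ x₁) z = f (κ x₁) z₀ ∧ f x₂ z = f x₂ z₀ ∧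
    f (κ x₂) z = f (κ x₂) z₀ := by
  have := h.finite
  have hd := h.d_ne
  have htwo := h.two
  let L : V →ₗ[F] (Fin 4 → F) := LinearMap.pi ![f x₁, f (κ x₁), f x₂, f (κ x₂)]
  have hL : ∀ e, L e = 0 ↔ (f x₁ e = 0 ∧ f (κ x₁) e = 0 ∧ f x₂ e = 0 ∧ f (κ x₂) e = 0) := by
    intro e
    constructor
    · intro h0
      exact ⟨congrFun h0 0, congrFun h0 1, congrFun h0 2, congrFun h0 3⟩
    · rintro ⟨h0, h1, h2, h3⟩
      funext i
      fin_cases i
      · exact h0
      · exact h1
      · exact h2
      · exact h3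
  set E := LinearMap.ker L with hE
  have hmemE : ∀ e, e ∈ E ↔ (f x₁ e = 0 ∧ f (κ x₁) e = 0 ∧ f x₂ e = 0 ∧ f (κ x₂) e = 0) :=
    fun e => by rw [hE, LinearMap.mem_ker]; exact hL e
  have hdimE : 4 ≤ finrank F E := by
    have h1 := LinearMap.finrank_range_add_finrank_ker L
    rw [← hE] at h1
    have h2 : finrank F (LinearMap.range L) ≤ 4 := by
      have := Submodule.finrank_le (LinearMap.range L)
      simpa using this
    have h3 := h.dim
    omega
  have hadj0 : ∀ x e, f (κ x) e = 0 → f x (κ e) = 0 := by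
    intro x e hxe
    have := h.adj x e
    rw [hxe] at this
    exact neg_eq_zero.1 this.symm
  have hκE : ∀ e ∈ E, κ e ∈ E := by
    intro e he
    rw [hmemE] at he ⊢
    obtain ⟨h0, h1, h2, h3⟩ := he
    refine ⟨hadj0 _ _ h1, ?_, hadj0 _ _ h3, ?_⟩
    · rw [h.kk, h0, mul_zero, neg_zero]
    · rw [h.kk, h2, mul_zero, neg_zero]
  by_cases hcon : ∃ e ∈ E, f (κ e) e ≠ 0
  · obtain ⟨e, he, hqe⟩ := hcon
    have hκe := hκE e he
    rw [hmemE] at he hκe
    obtain ⟨h0, h1, h2, h3⟩ := he
    obtain ⟨k0, k1, k2, k3⟩ := hκe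
    obtain ⟨α, β, hαβ⟩ := h.norm (-(f (κ z₀) z₀ - f (κ z₀) e * f (κ z₀) e / f (κ e) e +
      f (κ z₀) (κ e) * f (κ z₀) (κ e) / (d * f (κ e) e)) / f (κ e) e)
    refine ⟨z₀ + ((α - f (κ z₀) e / f (κ e) e) • e +
      (β + f (κ z₀) (κ e) / (d * f (κ e) e)) • κ e), ?_, ?_, ?_, ?_, ?_⟩
    · rw [h.q_add, h.q_comb, map_add, map_smul, map_smul, smul_eq_mul, smul_eq_mul]
      have e1 : (α * α - d * (β * β)) * f (κ e) e = -(f (κ z₀) z₀ -
          f (κ z₀) e * f (κ z₀) e / f (κ e) e +
          f (κ z₀) (κ e) * f (κ z₀) (κ e) / (d * f (κ e) e)) := by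
        rw [hαβ, div_mul_cancel₀ _ hqe]
      have e2 : f (κ z₀) z₀ + ((α - f (κ z₀) e / f (κ e) e) * (α - f (κ z₀) e / f (κ e) e) -
          d * ((β + f (κ z₀) (κ e) / (d * f (κ e) e)) *
            (β + f (κ z₀) (κ e) / (d * f (κ e) e)))) * f (κ e) e +
          2 * ((α - f (κ z₀) e / f (κ e) e) * f (κ z₀) e +
            (β + f (κ z₀) (κ e) / (d * f (κ e) e)) * f (κ z₀) (κ e)) =
          f (κ z₀) z₀ + (α * α - d * (β * β)) * f (κ e) e -
            f (κ z₀) e * f (κ z₀) e / f (κ e) e +
            f (κ z₀) (κ e) * f (κ z₀) (κ e) / (d * f (κ e) e) := by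
        field_simp
        ring
      rw [e2, e1]
      ring
    · rw [map_add, map_add, map_smul, map_smul, h0, k0]; simp
    · rw [map_add, map_add, map_smul, map_smul, h1, k1]; simp
    · rw [map_add, map_add, map_smul, map_smul, h2, k2]; simp
    · rw [map_add, map_add, map_smul, map_smul, h3, k3]; simp
  · push Not at hcon
    have hpol : ∀ e ∈ E, ∀ e' ∈ E, f (κ e) e' = 0 := by
      intro e he e' he'
      have h1 := hcon (e + e') (E.add_mem he he')
      rw [h.q_add, hcon e he, hcon e' he', zero_add, zero_add] at h1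
      exact (mul_eq_zero.1 h1).resolve_left h.two
    have hpol' : ∀ e ∈ E, ∀ e' ∈ E, f e e' = 0 := by
      intro e he e' he'
      have h1 := hpol (κ e) (hκE e he) e' he'
      rw [h.sq, map_smul, LinearMap.smul_apply, smul_eq_mul] at h1
      exact (mul_eq_zero.1 h1).resolve_left hd
    set P := Submodule.span F (Set.range ![x₁, κ x₁, x₂, κ x₂]) with hP
    have hEP : E ≤ P := by
      intro e he
      have h1 : f e ∈ Submodule.span F (Set.range ![f x₁, f (κ x₁), f x₂, f (κ x₂)]) := by
        apply mem_span_of_iInf_ker_le_ker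
        intro z hz
        rw [Submodule.mem_iInf] at hz
        exact hpol' e he z ((hmemE z).2 ⟨hz 0, hz 1, hz 2, hz 3⟩)
      rw [Submodule.mem_span_range_iff_exists_fun] at h1
      obtain ⟨c, hc⟩ := h1
      rw [hP, Submodule.mem_span_range_iff_exists_fun]
      refine ⟨c, ?_⟩
      by_contra hne'
      have h2 : (∑ i, c i • ![x₁, κ x₁, x₂, κ x₂] i) - e ≠ 0 := sub_ne_zero.2 hne'
      obtain ⟨w, hw⟩ := h.ndeg _ h2
      apply hw
      have h3 := LinearMap.congr_fun hc w
      rw [Fin.sum_univ_four] at h3 ⊢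
      simp only [Matrix.cons_val_zero, Matrix.cons_val_one, Matrix.cons_val_two,
        Matrix.cons_val_three, Matrix.tail_cons, Matrix.head_cons, LinearMap.add_apply,
        LinearMap.smul_apply, Matrix.cons_val] at h3 ⊢
      rw [map_sub, LinearMap.sub_apply, ← h3]
      simp only [map_add, map_smul, LinearMap.add_apply, LinearMap.smul_apply, sub_self]
    have hPE : E = P := by
      apply Submodule.eq_of_le_of_finrank_le hEP
      refine le_trans ?_ hdimE
      have := finrank_range_le_card (R := F) ![x₁, κ x₁, x₂, κ x₂]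
      rw [Set.finrank] at this
      simpa using this
    have hx₁ : x₁ ∈ E := by
      rw [hPE]
      exact Submodule.subset_span ⟨0, rfl⟩
    have hx₂ : x₂ ∈ E := by
      rw [hPE]
      exact Submodule.subset_span ⟨2, rfl⟩
    have main : ∀ x ∈ E, f x z₀ ≠ 0 → ∃ z, f (κ z) z = 0 ∧
        f x₁ z = f x₁ z₀ ∧ f (κ x₁) z = f (κ x₁) z₀ ∧ f x₂ z = f x₂ z₀ ∧
        f (κ x₂) z = f (κ x₂) z₀ := by
      intro x hx hxz
      have hκx := hκE x hx
      have hκx' := (hmemE _).1 hκx
      refine ⟨z₀ + (-(f (κ z₀) z₀) / (2 * d * f x z₀)) • κ x, ?_, ?_, ?_, ?_, ?_⟩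
      · rw [h.q_add, h.q_smul, hcon _ hκx, map_smul, h.kk, h.skew z₀ x, smul_eq_mul]
        field_simp
        ring
      · rw [map_add, map_smul, hκx'.1, smul_zero, add_zero]
      · rw [map_add, map_smul, hκx'.2.1, smul_zero, add_zero]
      · rw [map_add, map_smul, hκx'.2.2.1, smul_zero, add_zero]
      · rw [map_add, map_smul, hκx'.2.2.2, smul_zero, add_zero]
    rcases hne with hne | hne
    · exact main x₁ hx₁ hne
    · exact main x₂ hx₂ hne

/-- Dual vectors. -/
theorem exists_dual {x y : V} (hy : ∀ α β : F, y ≠ α • x + β • κ x) :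
    ∃ z, f x z = 0 ∧ f (κ x) z = 0 ∧ f y z = 1 ∧ f (κ y) z = 0 := by
  have := h.finite
  obtain ⟨z₁, hz1, hz2, hz3⟩ : ∃ z₁, f x z₁ = 0 ∧ f (κ x) z₁ = 0 ∧ f y z₁ ≠ 0 := by
    by_contra hcon
    push Not at hcon
    have h1 : f y ∈ Submodule.span F (Set.range ![f x, f (κ x)]) := by
      apply mem_span_of_iInf_ker_le_ker
      intro z hz
      rw [Submodule.mem_iInf] at hz
      exact hcon z (hz 0) (hz 1)
    rw [Submodule.mem_span_range_iff_exists_fun] at h1
    obtain ⟨c, hc⟩ := h1
    rw [Fin.sum_univ_two] at hc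
    apply hy (c 0) (c 1)
    have hne : ¬ (y - (c 0 • x + c 1 • κ x)) ≠ 0 := by
      intro h2
      obtain ⟨w, hw⟩ := h.ndeg _ h2
      apply hw
      have h3 := LinearMap.congr_fun hc w
      simp only [Matrix.cons_val_zero, Matrix.cons_val_one, LinearMap.add_apply,
        LinearMap.smul_apply] at h3
      rw [map_sub, map_add, map_smul, map_smul, LinearMap.sub_apply, LinearMap.add_apply,
        LinearMap.smul_apply, LinearMap.smul_apply, h3, sub_self]
    push Not at hne
    exact sub_eq_zero.1 hne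
  have k0 : f x (κ z₁) = 0 := by
    have := h.adj x z₁
    rw [hz2] at this
    exact neg_eq_zero.1 this.symm
  have k1 : f (κ x) (κ z₁) = 0 := by rw [h.kk, hz1, mul_zero, neg_zero]
  have k2 : f y (κ z₁) = - f (κ y) z₁ := by rw [h.adj, neg_neg]
  have k3 : f (κ y) (κ z₁) = - (d * f y z₁) := h.kk _ _
  set p := f y z₁ with hp
  set p' := f (κ y) z₁ with hp'
  have hD : p * p * d - p' * p' ≠ 0 := h.quad_ne (Or.inl hz3)
  refine ⟨(p * d / (p * p * d - p' * p')) • z₁ + (p' / (p * p * d - p' * p')) • κ z₁, ?_, ?_, ?_,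
    ?_⟩
  · rw [map_add, map_smul, map_smul, hz1, k0]; simp
  · rw [map_add, map_smul, map_smul, hz2, k1]; simp
  · rw [map_add, map_smul, map_smul, ← hp, k2, smul_eq_mul, smul_eq_mul, div_mul_eq_mul_div,
      div_mul_eq_mul_div, ← add_div, div_eq_one_iff_eq hD]
    ring
  · rw [map_add, map_smul, map_smul, ← hp', k3, smul_eq_mul, smul_eq_mul]
    field_simp
    ring

theorem exists_dual_one {y : V} (hy : y ≠ 0) : ∃ z, f y z = 1 ∧ f (κ y) z = 0 := by
  obtain ⟨z, -, -, h1, h2⟩ := h.exists_dual (x := 0) (y := y) (by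
    intro α β
    rw [smul_zero, map_zero, smul_zero, add_zero]
    exact hy)
  exact ⟨z, h1, h2⟩

/-- Connectedness. -/
theorem conn {A : V → Prop} (hA : ∀ x z, A x → x ≠ 0 → f (κ x) x = 0 → f (κ z) z = 0 →
    f (κ x) z = 0 → f x z ≠ 0 → A z) {x₀ : V} (h0 : A x₀) (hx0 : x₀ ≠ 0)
    (hq0 : f (κ x₀) x₀ = 0) {y : V} (hy : y ≠ 0) (hqy : f (κ y) y = 0) : A y := by
  have key : ∀ x y : V, A x → x ≠ 0 → f (κ x) x = 0 → y ≠ 0 → f (κ y) y = 0 →
      (∀ α β : F, y ≠ α • x + β • κ x) → (∀ α β : F, x ≠ α • y + β • κ y) → A y := by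
    intro x y hAx hx hqx hy hqy h1 h2
    obtain ⟨z₁, a1, a2, a3, a4⟩ := h.exists_dual h1
    obtain ⟨z₂, b1, b2, b3, b4⟩ := h.exists_dual h2
    obtain ⟨z, c0, c1, c2, c3, c4⟩ := h.exists_iso x y (z₁ + z₂) (Or.inl (by
      rw [map_add, a1, b3, zero_add]; exact one_ne_zero))
    rw [map_add, a1, b3, zero_add] at c1
    rw [map_add, a2, b4, zero_add] at c2
    rw [map_add, a3, b1, add_zero] at c3
    rw [map_add, a4, b2, add_zero] at c4
    have hz : A z := hA x z hAx hx hqx c0 c2 (by rw [c1]; exact one_ne_zero)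
    have hz0 : z ≠ 0 := by
      rintro rfl
      rw [map_zero] at c1
      exact zero_ne_one c1
    exact hA z y hz hz0 c0 hqy (by rw [h.symm, c4]) (by
      rw [h.skew, c3]; exact neg_ne_zero.2 one_ne_zero)
  by_cases hK : ∃ α β : F, y = α • x₀ + β • κ x₀
  · obtain ⟨α, β, hαβ⟩ := hK
    obtain ⟨z₀, e1, e2⟩ := h.exists_dual_one hx0
    obtain ⟨z, c0, c1, c2, -, -⟩ := h.exists_iso x₀ x₀ z₀ (Or.inl (by
      rw [e1]; exact one_ne_zero))
    rw [e1] at c1
    rw [e2] at c2
    have hxκ : f x₀ (κ x₀) = 0 := by rw [h.skew, hq0, neg_zero]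
    have hxz : f x₀ (κ z) = 0 := by
      have := h.adj x₀ z
      rw [c2] at this
      exact neg_eq_zero.1 this.symm
    have hz0 : z ≠ 0 := by
      rintro rfl
      rw [map_zero] at c1
      exact zero_ne_one c1
    have hy1 : f x₀ y = 0 := by
      rw [hαβ, map_add, map_smul, map_smul, h.alt, hxκ]; simp
    have hy2 : f (κ x₀) y = 0 := by
      rw [hαβ, map_add, map_smul, map_smul, h.alt, hq0]; simp
    have hAz : A z := hA x₀ z h0 hx0 hq0 c0 c2 (by rw [c1]; exact one_ne_zero)
    apply key z y hAz hz0 c0 hy hqy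
    · intro α' β' h3
      have h4 : α' = 0 := by
        have := hy1
        rw [h3, map_add, map_smul, map_smul, c1, hxz] at this
        simpa using this
      have h5 : β' = 0 := by
        have := hy2
        rw [h3, h4, zero_smul, zero_add, map_smul, h.kk, c1, smul_eq_mul, mul_one] at this
        exact (mul_eq_zero.1 this).resolve_right (neg_ne_zero.2 h.d_ne)
      rw [h4, h5] at h3
      simp at h3
      exact hy h3
    · intro α' β' h3
      have h4 : f x₀ z = 0 := by
        have hκy : f x₀ (κ y) = 0 := by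
          have := h.adj x₀ y
          rw [hy2] at this
          exact neg_eq_zero.1 this.symm
        rw [h3, map_add, map_smul, map_smul, hy1, hκy]; simp
      rw [c1] at h4
      exact one_ne_zero h4
  · push Not at hK
    apply key x₀ y h0 hx0 hq0 hy hqy hK
    intro α β h1
    -- invert the relation
    have hαβ : α ≠ 0 ∨ β ≠ 0 := by
      by_contra hc
      push Not at hc
      rw [hc.1, hc.2] at h1
      simp at h1
      exact hx0 h1
    have hD : β * β * d - α * α ≠ 0 := h.quad_ne hαβ.symm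
    apply hK (-α / (β * β * d - α * α)) (β / (β * β * d - α * α))
    rw [h1]
    simp only [map_add, map_smul, h.sq]
    have e1 : (-α / (β * β * d - α * α)) * α + (β / (β * β * d - α * α)) * (β * d) = 1 := by
      rw [div_mul_eq_mul_div, div_mul_eq_mul_div, ← add_div, div_eq_one_iff_eq hD]
      ring
    have e2 : (-α / (β * β * d - α * α)) * β + (β / (β * β * d - α * α)) * α = 0 := by
      field_simp
      ring
    calc y = (1 : F) • y + (0 : F) • κ y := by simp
      _ = _ := by rw [← e1, ← e2]; module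


/-- Conjugation of `rho`. -/
theorem rho_conj {a u : V} (hr : Has M (rho f a u)) {g : V ≃ₗ[F] V} (hg : g ∈ M) :
    Has M (rho f (g a) (g u)) := by
  refine (hr.conj hg).congr fun x => ?_
  unfold rho
  simp only [map_add, map_smul, apply_inv_apply, h.pres_inv hg]

theorem tr_conj {y : V} {e : F} (hr : Has M (tr f y e)) {g : V ≃ₗ[F] V} (hg : g ∈ M) :
    Has M (tr f (g y) e) := by
  refine (hr.conj hg).congr fun x => ?_
  unfold tr
  simp only [map_add, map_smul, apply_inv_apply, h.pres_inv hg]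

theorem tr_add {y : V} {e e' : F} (h1 : Has M (tr f y e)) (h2 : Has M (tr f y e')) :
    Has M (tr f y (e + e')) := by
  refine (h1.comp h2).congr fun x => ?_
  unfold tr
  simp only [map_add, map_smul, LinearMap.add_apply, LinearMap.smul_apply, smul_eq_mul, h.alt]
  module

/-- From `rho f a u` and `rho f a (u + b)` to a transvection. -/
theorem tr_of_rho {a u b : V} (h1 : f a u = 1) (h2 : f a b = 0) (h3 : f u b = 0)
    (hr : Has M (rho f a u)) (hr' : Has M (rho f a (u + b))) : Has M (tr f b 2) := by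
  have g1 : f u a = -1 := by rw [h.skew, h1]
  have g2 : f b a = 0 := by rw [h.skew, h2, neg_zero]
  have g3 : f b u = 0 := by rw [h.skew, h3, neg_zero]
  have hri : Has M (rhoi f a u) := hr.inv (rho_rhoi h.alt h.skew h1)
  have hom : Has M (om f b ((2 : F) • a + u) 1) :=
    (hr'.comp hri).congr (om_formula h.alt h.skew h1 h2 h3)
  -- the conjugate by rho
  obtain ⟨t, ht, hte⟩ := hr
  have ta : t a = (3 : F) • a + u := by
    rw [hte, rho, h1, h.alt]
    module
  have tu : t u = -a := by
    rw [hte, rho, h.alt, g1]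
    module
  have tb : t b = b := by
    rw [hte, rho, g2, g3]
    module
  have hom' : Has M (om f b ((5 : F) • a + (2 : F) • u) 1) := by
    refine (hom.conj ht).congr fun x => ?_
    unfold om
    simp only [map_add, map_smul, apply_inv_apply, h.pres_inv ht, ta, tu, tb, LinearMap.add_apply,
      LinearMap.smul_apply, map_neg]
    module
  have p1 : f b ((2 : F) • a + u) = 0 := by rw [map_add, map_smul, g2, g3]; simp
  have p2 : f b ((5 : F) • a + (2 : F) • u) = 0 := by
    rw [map_add, map_smul, map_smul, g2, g3]; simp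
  have hprod := (hom.comp hom').congr (om_om h.alt h.skew 1 1 p1 p2)
  have hprod' := (hom'.comp hom).congr (om_om h.alt h.skew 1 1 p2 p1)
  have v1 : f ((5 : F) • a + (2 : F) • u) ((2 : F) • a + u) = 1 := by
    simp only [map_add, map_smul, LinearMap.add_apply, LinearMap.smul_apply, h1, g1, h.alt,
      smul_eq_mul]
    ring
  have v2 : f ((2 : F) • a + u) ((5 : F) • a + (2 : F) • u) = -1 := by
    rw [h.skew, v1]
  rw [v1] at hprod
  rw [v2, add_comm ((5 : F) • a + (2 : F) • u)] at hprod'
  -- the quotient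
  have p3 : f b ((2 : F) • a + u + ((5 : F) • a + (2 : F) • u)) = 0 := by
    rw [map_add, p1, p2, add_zero]
  have p4 : f b (-((2 : F) • a + u + ((5 : F) • a + (2 : F) • u))) = 0 := by
    rw [map_neg, p3, neg_zero]
  have hinv : Has M (om f b (-((2 : F) • a + u + ((5 : F) • a + (2 : F) • u))) (-(1 + 1 + -1))) := by
    refine hprod'.inv fun x => ?_
    rw [om_om h.alt h.skew _ _ p3 p4, map_neg, LinearMap.neg_apply, h.alt, add_neg_cancel, neg_zero,
      add_zero, add_neg_cancel, om_zero, tr, zero_mul, zero_smul, add_zero]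
  refine (hprod.comp hinv).congr fun x => ?_
  rw [om_om h.alt h.skew _ _ p3 p4, map_neg, LinearMap.neg_apply, h.alt, add_neg_cancel, neg_zero,
      add_zero, om_zero]
  congr 1
  ring

/-- The configuration: `rho` is in `M`. -/
theorem has_rho {g : V ≃ₗ[F] V} (hg : g ∈ M) {v a : V} (hv : f (κ v) v = 0)
    (ha : f (κ a) a = 0) (h0 : f (g v) a = 0) (h1 : f (κ (g v)) a = 0)
    (h2 : f a (g (κ v)) = 1) (h3 : f (κ a) (g (κ v)) = 0) : Has M (rho f a (g (κ v))) := by
  have hd := h.d_ne
  have hX : ∀ p : F, Has M (XX f a (κ a) d⁻¹ p) := by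
    intro p
    refine (h.tv a (p * d⁻¹) ha).congr fun x => ?_
    unfold ut XX
    rw [mul_assoc p d⁻¹ d, inv_mul_cancel₀ hd, mul_one]
  have hY : ∀ p : F, Has M (YY f (g (κ v)) (g v) d p) := by
    intro p
    refine ((h.tv v p hv).conj hg).congr fun x => ?_
    unfold ut YY
    rw [map_sub, map_add, map_smul, map_smul, apply_inv_apply, h.pres_inv hg, h.pres_inv hg]
  have h5 : f (g v) (g (κ v)) = 0 := by
    rw [h.pres g hg, h.skew, hv, neg_zero]
  have h6 : f (g v) (κ a) = 0 := by
    have := h.adj (g v) a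
    rw [h1] at this
    exact neg_eq_zero.1 this.symm
  exact ((hX 1).comp ((hY 1).comp ((hX (-1)).comp (hY (-1))))).congr
    (rho_formula h.alt h.skew d⁻¹ d h2 ha h3 h0 h5 h6)

/-- An isotropic vector with all its transvections in `M`. -/
theorem exists_first {a u : V} (ha : f (κ a) a = 0) (h1 : f a u = 1) (h2 : f (κ a) u = 0)
    (hr : Has M (rho f a u)) : ∃ y, y ≠ 0 ∧ f (κ y) y = 0 ∧ ∀ e : F, Has M (tr f y e) := by
  have := h.finite
  have hd := h.d_ne
  have g1 : f u a = -1 := by rw [h.skew, h1]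
  have haκ : f a (κ a) = 0 := by rw [h.skew, ha, neg_zero]
  have g2 : f u (κ a) = 0 := by rw [h.skew, h2, neg_zero]
  -- a vector orthogonal to everything
  obtain ⟨y, hy0, hqy, y1, y2, y3, y4⟩ : ∃ y, y ≠ 0 ∧ f (κ y) y = 0 ∧ f a y = 0 ∧ f (κ a) y = 0 ∧
      f u y = 0 ∧ f (κ u) y = 0 := by
    let L : V →ₗ[F] (Fin 4 → F) := LinearMap.pi ![f a, f (κ a), f u, f (κ u)]
    have hker : LinearMap.ker L ≠ ⊥ := by
      apply LinearMap.ker_ne_bot_of_finrank_lt
      have := h.dim
      simp
      omega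
    obtain ⟨z, hz, hz0⟩ := (LinearMap.ker L).ne_bot_iff.1 hker
    have e0 : f a z = 0 := congrFun (LinearMap.mem_ker.1 hz) 0
    have e1 : f (κ a) z = 0 := congrFun (LinearMap.mem_ker.1 hz) 1
    have e2 : f u z = 0 := congrFun (LinearMap.mem_ker.1 hz) 2
    have e3 : f (κ u) z = 0 := congrFun (LinearMap.mem_ker.1 hz) 3
    by_cases hq : f (κ z) z = 0
    · exact ⟨z, hz0, hq, e0, e1, e2, e3⟩
    · let L' : V →ₗ[F] (Fin 6 → F) := LinearMap.pi ![f a, f (κ a), f u, f (κ u), f z, f (κ z)]
      have hker' : LinearMap.ker L' ≠ ⊥ := by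
        apply LinearMap.ker_ne_bot_of_finrank_lt
        have := h.dim
        simp
        omega
      obtain ⟨e, he, he0⟩ := (LinearMap.ker L').ne_bot_iff.1 hker'
      have k0 : f a e = 0 := congrFun (LinearMap.mem_ker.1 he) 0
      have k1 : f (κ a) e = 0 := congrFun (LinearMap.mem_ker.1 he) 1
      have k2 : f u e = 0 := congrFun (LinearMap.mem_ker.1 he) 2
      have k3 : f (κ u) e = 0 := congrFun (LinearMap.mem_ker.1 he) 3
      have k4 : f z e = 0 := congrFun (LinearMap.mem_ker.1 he) 4
      have k5 : f (κ z) e = 0 := congrFun (LinearMap.mem_ker.1 he) 5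
      have hadj0 : ∀ x e, f (κ x) e = 0 → f x (κ e) = 0 := by
        intro x e hxe
        have := h.adj x e
        rw [hxe] at this
        exact neg_eq_zero.1 this.symm
      have m0 : f a (κ z) = 0 := hadj0 _ _ e1
      have m1 : f (κ a) (κ z) = 0 := by rw [h.kk, e0, mul_zero, neg_zero]
      have m2 : f u (κ z) = 0 := hadj0 _ _ e3
      have m3 : f (κ u) (κ z) = 0 := by rw [h.kk, e2, mul_zero, neg_zero]
      obtain ⟨α, β, hαβ⟩ := h.norm (-(f (κ e) e) / f (κ z) z)
      have k6 : f e z = 0 := by rw [h.skew, k4, neg_zero]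
      have k7 : f (κ e) z = 0 := by rw [h.symm, k5]
      have k8 : f (κ e) (κ z) = 0 := by rw [h.kk, k6, mul_zero, neg_zero]
      refine ⟨e + (α • z + β • κ z), ?_, ?_, ?_, ?_, ?_, ?_⟩
      · intro h0
        have hα : α = 0 := by
          have h1 : f (κ z) (e + (α • z + β • κ z)) = 0 := by rw [h0, map_zero]
          rw [map_add, map_add, map_smul, map_smul, k5, h.alt, smul_zero, add_zero, zero_add,
            smul_eq_mul] at h1
          exact (mul_eq_zero.1 h1).resolve_right hq
        have hβ : β = 0 := by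
          have h1 : f z (e + (α • z + β • κ z)) = 0 := by rw [h0, map_zero]
          rw [map_add, map_add, map_smul, map_smul, k4, h.alt, smul_zero, zero_add, zero_add,
            smul_eq_mul, h.skew] at h1
          exact (mul_eq_zero.1 h1).resolve_right (neg_ne_zero.2 hq)
        rw [hα, hβ, zero_smul, zero_smul, add_zero, add_zero] at h0
        exact he0 h0
      · rw [h.q_add, h.q_comb, hαβ, div_mul_cancel₀ _ hq, map_add, map_smul, map_smul, k7, k8]
        simp
      · rw [map_add, map_add, map_smul, map_smul, k0, e0, m0]; simp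
      · rw [map_add, map_add, map_smul, map_smul, k1, e1, m1]; simp
      · rw [map_add, map_add, map_smul, map_smul, k2, e2, m2]; simp
      · rw [map_add, map_add, map_smul, map_smul, k3, e3, m3]; simp
  refine ⟨y, hy0, hqy, ?_⟩
  have y1' : f y a = 0 := by rw [h.skew, y1, neg_zero]
  have y3' : f y u = 0 := by rw [h.skew, y3, neg_zero]
  have y2' : f y (κ a) = 0 := by rw [h.skew, y2, neg_zero]
  have y5 : f a (κ y) = 0 := by
    have := h.adj a y
    rw [y2] at this
    exact neg_eq_zero.1 this.symm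
  have y6 : f u (κ y) = 0 := by
    have := h.adj u y
    rw [y4] at this
    exact neg_eq_zero.1 this.symm
  -- the element mapping u to u + s y
  have hmove : ∀ s : F, ∃ t ∈ M, t a = a ∧ t u = u + s • y := by
    intro s
    have hq1 : f (κ (a + y)) (a + y) = 0 := by
      rw [h.q_add, ha, hqy, y2]; simp
    obtain ⟨t₁, ht₁, he₁⟩ := h.tv (a + y) (s / d) hq1
    obtain ⟨t₂, ht₂, he₂⟩ := h.tv a (-(s / d)) ha
    have e1 : t₂ a = a := by
      rw [he₂, ut, haκ, h.alt]; simp
    have e2 : t₂ u = u - s • a := by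
      rw [he₂, ut, g2, g1]
      have : -(s / d) * d * -1 = s := by field_simp
      rw [this]
      simp
    have e3 : t₁ a = a := by
      rw [he₁, ut, map_add, map_add, map_add, haκ, y5, h.alt, y1]; simp
    have e4 : t₁ u = u + s • (a + y) := by
      rw [he₁, ut, map_add, map_add, map_add, g2, y6, g1, y3]
      have : s / d * d * (-1 + 0) = -s := by field_simp; ring
      rw [this, add_zero, mul_zero, zero_smul, add_zero]
      module
    refine ⟨t₁ * t₂, M.mul_mem ht₁ ht₂, ?_, ?_⟩
    · rw [LinearEquiv.mul_apply, e1, e3]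
    · rw [LinearEquiv.mul_apply, e2, map_sub, map_smul, e3, e4]
      module
  have hsq : ∀ s : F, Has M (tr f y (2 * (s * s))) := by
    intro s
    obtain ⟨t, ht, ta, tu⟩ := hmove s
    have h4 := h.rho_conj hr ht
    rw [ta, tu] at h4
    have h5 := h.tr_of_rho h1 (by rw [map_smul, y1, smul_zero]) (by rw [map_smul, y3, smul_zero])
      hr h4
    refine h5.congr fun x => ?_
    unfold tr
    rw [map_smul, smul_eq_mul, smul_smul]
    congr 2
    ring
  intro e
  obtain ⟨α, β, hαβ⟩ := h.sumsq (e / 2)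
  have h4 := h.tr_add (hsq α) (hsq β)
  have h5 : 2 * (α * α) + 2 * (β * β) = e := by
    rw [← mul_add, hαβ, mul_div_cancel₀ _ h.two]
  rwa [h5] at h4

/-- All transvections are in `M`. -/
theorem all_of_first {y₀ : V} (h0 : y₀ ≠ 0) (hq : f (κ y₀) y₀ = 0)
    (ht : ∀ e : F, Has M (tr f y₀ e)) (y : V) (e : F) : Has M (tr f y e) := by
  have hiso : ∀ y : V, y ≠ 0 → f (κ y) y = 0 → ∀ e : F, Has M (tr f y e) := by
    intro y hy hqy
    refine h.conn (A := fun y => ∀ e : F, Has M (tr f y e)) ?_ ht h0 hq hy hqy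
    intro x z hx hx0 hqx hqz hxz hxz'
    have hq1 : f (κ (x - z)) (x - z) = 0 := by
      simp only [map_sub, LinearMap.sub_apply, hqx, hqz, hxz, h.symm z x]
      simp
    obtain ⟨t, ht, he⟩ := h.tv (x - z) (-(d * f x z)⁻¹) hq1
    have hxκ : f x (κ x) = 0 := by rw [h.skew, hqx, neg_zero]
    have hxκz : f x (κ z) = 0 := by
      have := h.adj x z
      rw [hxz] at this
      exact neg_eq_zero.1 this.symm
    have htx : t x = z := by
      rw [he, ut, map_sub, map_sub, map_sub, hxκ, hxκz, h.alt]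
      have hd := h.d_ne
      have : -(d * f x z)⁻¹ * d * (0 - f x z) = 1 := by field_simp; ring
      rw [this]
      simp
    intro e
    have := h.tr_conj (hx e) ht
    rwa [htx] at this
  by_cases hy : y = 0
  · subst hy
    refine has_id.congr fun x => ?_
    unfold tr
    rw [smul_zero, add_zero]
  by_cases hqy : f (κ y) y = 0
  · exact hiso y hy hqy e
  · -- y is a sum of two isotropic vectors
    obtain ⟨z₀, hz₀, hz₁⟩ := h.exists_dual_one hy
    have hκz : f y (κ z₀) = 0 := by
      have := h.adj y z₀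
      rw [hz₁] at this
      exact neg_eq_zero.1 this.symm
    have hκκ : f (κ y) (κ z₀) = - d := by rw [h.kk, hz₀, mul_one]
    obtain ⟨z, c0, c1, c2, -, -⟩ := h.exists_iso y y (z₀ + κ z₀) (Or.inl (by
      rw [map_add, hz₀, hκz, add_zero]; exact one_ne_zero))
    rw [map_add, hz₀, hκz, add_zero] at c1
    rw [map_add, hz₁, hκκ, zero_add] at c2
    have hd := h.d_ne
    have htwo := h.two
    set s := f (κ y) y / (2 * f (κ y) z) with hs
    have hden : 2 * f (κ y) z ≠ 0 := by
      rw [c2]; exact mul_ne_zero htwo (neg_ne_zero.2 hd)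
    have hq1 : f (κ (y - s • z)) (y - s • z) = 0 := by
      simp only [map_sub, map_smul, LinearMap.sub_apply, LinearMap.smul_apply, smul_eq_mul, c0,
        h.symm z y]
      have : s * (2 * f (κ y) z) = f (κ y) y := div_mul_cancel₀ _ hden
      linear_combination this - 2 * this
    have hz0 : z ≠ 0 := by
      rintro rfl
      rw [map_zero] at c1
      exact zero_ne_one c1
    have hfz : f (y - s • z) z = 1 := by
      simp only [map_sub, map_smul, LinearMap.sub_apply, LinearMap.smul_apply, smul_eq_mul, h.alt,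
        c1]
      ring
    have hne : y - s • z ≠ 0 := by
      intro h4
      rw [h4, map_zero, LinearMap.zero_apply] at hfz
      exact zero_ne_one hfz
    obtain ⟨t, ht, he⟩ := hiso z hz0 c0 s
    have h5 := h.tr_conj (hiso _ hne hq1 e) ht
    have h6 : t (y - s • z) = y := by
      rw [he, tr, hfz, mul_one, sub_add_cancel]
    rwa [h6] at h5

/-- The alternative. -/
theorem alternative : (∀ g ∈ M, ∃ α β : F, ∀ x, g (κ x) = α • g x + β • κ (g x)) ∨
    ∀ (y : V) (e : F), Has M (tr f y e) := by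
  by_cases hcase : ∃ g ∈ M, ∃ v, v ≠ 0 ∧ f (κ v) v = 0 ∧
      ∀ α β : F, g (κ v) ≠ α • g v + β • κ (g v)
  · right
    obtain ⟨g, hg, v, hv, hqv, hne⟩ := hcase
    obtain ⟨z₀, h1, h2, h3, h4⟩ := h.exists_dual hne
    obtain ⟨a, c0, c1, c2, c3, c4⟩ := h.exists_iso (g v) (g (κ v)) (-z₀) (Or.inr (by
      rw [map_neg, h3]; exact neg_ne_zero.2 one_ne_zero))
    rw [map_neg, h1, neg_zero] at c1
    rw [map_neg, h2, neg_zero] at c2
    rw [map_neg, h3] at c3
    rw [map_neg, h4, neg_zero] at c4
    have c3' : f a (g (κ v)) = 1 := by rw [h.skew, c3, neg_neg]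
    have c4' : f (κ a) (g (κ v)) = 0 := by rw [h.symm, c4]
    have hr := h.has_rho hg hqv c0 c1 c2 c3' c4'
    obtain ⟨y, hy, hqy, hall⟩ := h.exists_first c0 c3' c4' hr
    exact h.all_of_first hy hqy hall
  · left
    push Not at hcase
    intro g hg
    have hiso : ∀ v, v ≠ 0 → f (κ v) v = 0 → ∃ a b : F, g⁻¹ (κ (g v)) = a • v + b • κ v := by
      intro v hv hqv
      obtain ⟨α, β, hαβ⟩ := hcase g hg v hv hqv
      have hβ : β ≠ 0 := by
        rintro rfl
        rw [zero_smul, add_zero, ← map_smul] at hαβ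
        have h1 : κ v = α • v := g.injective hαβ
        have h2 := h.sq v
        rw [h1, map_smul, h1, smul_smul] at h2
        have h3 : (α * α - d) • v = 0 := by rw [sub_smul, h2, sub_self]
        exact h.nsq α (sub_eq_zero.1 ((smul_eq_zero.1 h3).resolve_right hv))
      refine ⟨-(β⁻¹ * α), β⁻¹, ?_⟩
      have h1 : κ (g v) = β⁻¹ • (g (κ v) - α • g v) := by
        rw [hαβ, add_sub_cancel_left, smul_smul, inv_mul_cancel₀ hβ, one_smul]
      rw [h1, map_smul, map_sub, map_smul, inv_apply_apply, inv_apply_apply]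
      module
    -- J x = g⁻¹ κ g x
    have hJ : ∀ x y, f (g⁻¹ (κ (g x))) y = - f x (g⁻¹ (κ (g y))) := by
      intro x y
      rw [h.pres_inv hg, h.adj, ← h.pres_inv (M.inv_mem hg)]
      simp only [inv_inv]
    obtain ⟨v₀, hv₀, hqv₀⟩ : ∃ v₀ : V, v₀ ≠ 0 ∧ f (κ v₀) v₀ = 0 := by
      have := h.finite
      have hnt : Nontrivial V := by
        apply nontrivial_of_finrank_pos (R := F)
        have := h.dim
        omega
      obtain ⟨w, hw⟩ := exists_ne (0 : V)
      obtain ⟨z₀, e1, e2⟩ := h.exists_dual_one hw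
      obtain ⟨z, c0, c1, -, -, -⟩ := h.exists_iso w w z₀ (Or.inl (by
        rw [e1]; exact one_ne_zero))
      refine ⟨z, ?_, c0⟩
      rintro rfl
      rw [map_zero, e1] at c1
      exact zero_ne_one c1
    obtain ⟨a₀, b₀, hab⟩ := hiso v₀ hv₀ hqv₀
    have hall : ∀ v, v ≠ 0 → f (κ v) v = 0 → g⁻¹ (κ (g v)) = a₀ • v + b₀ • κ v := by
      intro v hv hqv
      refine h.conn (A := fun v => g⁻¹ (κ (g v)) = a₀ • v + b₀ • κ v) ?_ hab hv₀ hqv₀ hv hqv
      intro x z hx hx0 hqx hqz hxz hxz'
      have hz0 : z ≠ 0 := by rintro rfl; rw [map_zero] at hxz'; exact hxz' rfl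
      obtain ⟨az, bz, hz⟩ := hiso z hz0 hqz
      have hqs : f (κ (x + z)) (x + z) = 0 := by rw [h.q_add, hqx, hqz, hxz]; simp
      have hs0 : x + z ≠ 0 := by
        intro h4
        have h5 : f x (x + z) = 0 := by rw [h4, map_zero]
        rw [map_add, h.alt, zero_add] at h5
        exact hxz' h5
      obtain ⟨as, bs, hs⟩ := hiso (x + z) hs0 hqs
      rw [map_add, map_add, map_add, hx, hz] at hs
      have w1 : f x (κ x) = 0 := by rw [h.skew, hqx, neg_zero]
      have w2 : f z (κ z) = 0 := by rw [h.skew, hqz, neg_zero]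
      have w3 : f x (κ z) = 0 := by
        have := h.adj x z
        rw [hxz] at this
        exact neg_eq_zero.1 this.symm
      have w4 : f (κ z) x = 0 := by rw [h.symm, hxz]
      have w5 : f z x = - f x z := h.skew _ _
      have w6 : f (κ x) (κ z) = -(d * f x z) := h.kk _ _
      have w7 : f (κ z) (κ x) = d * f x z := by rw [h.kk, w5]; ring
      have w8 : f z (κ x) = 0 := by rw [h.skew, hxz, neg_zero]
      have hd := h.d_ne
      have t1 := congrArg (fun w => f w z) hs
      have t2 := congrArg (f x) hs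
      have t3 := congrArg (fun w => f w (κ z)) hs
      have t4 := congrArg (f (κ x)) hs
      simp only [map_add, map_smul, LinearMap.add_apply, LinearMap.smul_apply, smul_eq_mul, h.alt,
        w1, w2, w3, w4, w5, w6, w7, w8, hqx, hqz, hxz, mul_zero, add_zero, zero_add] at t1 t2 t3 t4
      have r1 : a₀ = as := mul_right_cancel₀ hxz' t1
      have r2 : az = as := mul_right_cancel₀ hxz' t2
      have hdz : -(d * f x z) ≠ 0 := neg_ne_zero.2 (mul_ne_zero hd hxz')
      have r3 : b₀ = bs := mul_right_cancel₀ hdz t3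
      have r4 : bz = bs := mul_right_cancel₀ hdz t4
      change g⁻¹ (κ (g z)) = _
      rw [hz, r1, r2, r3, r4]
    have hall' : ∀ x, g⁻¹ (κ (g x)) = a₀ • x + b₀ • κ x := by
      intro x
      by_cases hx : x = 0
      · subst hx; simp
      by_cases hqx : f (κ x) x = 0
      · exact hall x hx hqx
      · obtain ⟨z₀, hz₀, hz₁⟩ := h.exists_dual_one hx
        have hκz : f x (κ z₀) = 0 := by
          have := h.adj x z₀
          rw [hz₁] at this
          exact neg_eq_zero.1 this.symm
        have hκκ : f (κ x) (κ z₀) = - d := by rw [h.kk, hz₀, mul_one]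
        obtain ⟨z, c0, c1, c2, -, -⟩ := h.exists_iso x x (z₀ + κ z₀) (Or.inl (by
          rw [map_add, hz₀, hκz, add_zero]; exact one_ne_zero))
        rw [map_add, hz₀, hκz, add_zero] at c1
        rw [map_add, hz₁, hκκ, zero_add] at c2
        have hd := h.d_ne
        have htwo := h.two
        set s := f (κ x) x / (2 * f (κ x) z) with hs
        have hden : 2 * f (κ x) z ≠ 0 := by
          rw [c2]; exact mul_ne_zero htwo (neg_ne_zero.2 hd)
        have hq1 : f (κ (x - s • z)) (x - s • z) = 0 := by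
          simp only [map_sub, map_smul, LinearMap.sub_apply, LinearMap.smul_apply, smul_eq_mul, c0,
            h.symm z x]
          have : s * (2 * f (κ x) z) = f (κ x) x := div_mul_cancel₀ _ hden
          linear_combination this - 2 * this
        have hz0 : z ≠ 0 := by
          rintro rfl
          rw [map_zero] at c1
          exact zero_ne_one c1
        have hfz : f (x - s • z) z = 1 := by
          simp only [map_sub, map_smul, LinearMap.sub_apply, LinearMap.smul_apply, smul_eq_mul,
            h.alt, c1]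
          ring
        have hne : x - s • z ≠ 0 := by
          intro h4
          rw [h4, map_zero, LinearMap.zero_apply] at hfz
          exact zero_ne_one hfz
        have k1 := hall _ hne hq1
        have k2 := hall _ hz0 c0
        have k3 : x = (x - s • z) + s • z := by rw [sub_add_cancel]
        rw [k3, map_add, map_add, map_add, k1, map_smul, map_smul, map_smul, k2]
        simp only [map_add, map_sub, map_smul]
        module
    have hb₀ : b₀ ≠ 0 := by
      rintro rfl
      have h1 := hall' (g⁻¹ (κ v₀))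
      have h2 := hall' (g⁻¹ v₀)
      rw [zero_smul, add_zero, apply_inv_apply] at h1 h2
      have h3 : κ v₀ = a₀ • v₀ := by
        have := congrArg g h2
        rwa [apply_inv_apply, map_smul, apply_inv_apply] at this
      have h4 := h.sq v₀
      rw [h3, map_smul, h3, smul_smul] at h4
      have h5 : (a₀ * a₀ - d) • v₀ = 0 := by rw [sub_smul, h4, sub_self]
      exact h.nsq a₀ (sub_eq_zero.1 ((smul_eq_zero.1 h5).resolve_right hv₀))
    refine ⟨-(b₀⁻¹ * a₀), b₀⁻¹, fun x => ?_⟩
    have h1 := congrArg g (hall' x)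
    rw [apply_inv_apply, map_add, map_smul, map_smul] at h1
    rw [h1]
    have : b₀⁻¹ * b₀ = 1 := inv_mul_cancel₀ hb₀
    calc g (κ x) = (b₀⁻¹ * b₀) • g (κ x) := by rw [this, one_smul]
      _ = _ := by module

end Hyp8

open Cfsg Matrix Polynomial Cfsg.Agent.ClassicalGeometry.SympBasic

theorem exists_quad {F : Type*} [Field F] [Fintype F] (hodd : Odd (Fintype.card F)) {a b : F}
    (ha : a ≠ 0) (hb : b ≠ 0) (e : F) : ∃ α β : F, a * (α * α) + b * (β * β) = e := by
  have hf : degree (C a * X ^ 2 - C e : F[X]) = 2 := by compute_degree!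
  have hg : degree (C b * X ^ 2 : F[X]) = 2 := by compute_degree!
  obtain ⟨α, β, h⟩ := FiniteField.exists_root_sum_quadratic hf hg (Nat.odd_iff.1 hodd)
  refine ⟨α, β, ?_⟩
  simp only [eval_sub, eval_mul, eval_C, eval_pow, eval_X] at h
  linear_combination h

theorem two_ne {F : Type*} [Field F] [Fintype F] (hodd : Odd (Fintype.card F)) : (2 : F) ≠ 0 := by
  intro h
  have hchar : CharP F 2 := by
    have := CharP.exists F
    obtain ⟨p, hp⟩ := this
    have h1 : (p : ℕ) ∣ 2 := (CharP.cast_eq_zero_iff F p 2).1 (by exact_mod_cast h)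
    have h2 : p.Prime := CharP.char_is_prime F p
    have h3 : p = 2 := (Nat.prime_dvd_prime_iff_eq h2 Nat.prime_two).1 h1
    subst h3
    exact hp
  have h1 := FiniteField.even_card_of_char_two (F := F) (ringChar.eq F 2)
  rw [Nat.odd_iff] at hodd
  omega

/-- For a finite field F of odd order and m ≥ 4, let K be a subfield of the algebra of 2m × 2m matrices over F containing the scalars, of degree 2 over F, that is closed under adjoints for the standard alternating form on F^(2m) but whose elements are not all self-adjoint (so the adjoint map induces the automorphism of order two of K). Then the elements of Sp_2m(F) normalising K form a maximal subgroup of Sp_2m(F). -/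
theorem unit_maximal {F : Type*} [Field F] [Fintype F] (m : ℕ) (hm : 4 ≤ m) (hodd : Odd (Fintype.card F)) (K : Subalgebra F (Matrix (Fin m ⊕ Fin m) (Fin m ⊕ Fin m) F)) (hK : Cfsg.Geo.IsFieldSubalgebra 2 K) (hac : Cfsg.Geo.IsAdjointClosedFor (Cfsg.sympForm m F) K) (hnsa : ¬ Cfsg.Geo.IsSelfAdjointFor (Cfsg.sympForm m F) K) : Cfsg.Geo.IsMaximalIn (Cfsg.spGL m F) (Cfsg.Geo.subalgebraNormalizer K ⊓ Cfsg.spGL m F) := by
  refine isMaximalIn_of hK le_rfl (by omega) fun M hHM hMS => ?_
  -- the element κ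
  obtain ⟨k, hk, hkn⟩ : ∃ k ∈ K, ¬ ∀ u v, sympForm m F (k *ᵥ u) v = sympForm m F u (k *ᵥ v) := by
    by_contra hcon
    push Not at hcon
    exact hnsa hcon
  obtain ⟨k', hk', hadj⟩ := hac k hk
  have hadj' : ∀ u v, sympForm m F (k' *ᵥ u) v = sympForm m F u (k *ᵥ v) := by
    intro u v
    rw [sympForm_swap, ← hadj, sympForm_swap, neg_neg]
  set κ : Matrix (Fin m ⊕ Fin m) (Fin m ⊕ Fin m) F := k - k' with hκ
  have hκK : κ ∈ K := K.sub_mem hk hk'
  have hκadj : ∀ u v, sympForm m F (κ *ᵥ u) v = - sympForm m F u (κ *ᵥ v) := by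
    intro u v
    rw [hκ, sub_mulVec, sub_mulVec, sympForm_sub_left, sympForm_sub_right, hadj, hadj']
    ring
  have hκ0 : κ ≠ 0 := by
    intro h0
    apply hkn
    intro u v
    rw [hadj, ← sub_eq_zero.1 h0]
  have htwo := two_ne hodd
  have hns : ∀ c : F, κ ≠ c • (1 : Matrix _ _ F) := by
    intro c hc
    have h1 : ∀ u v, 2 * (c * sympForm m F u v) = 0 := by
      intro u v
      have := hκadj u v
      rw [hc, smul_mulVec, smul_mulVec, one_mulVec, one_mulVec, sympForm_smul_left,
        sympForm_smul_right] at this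
      linear_combination this
    have hc0 : c = 0 := by
      by_contra hc0
      let i₀ : Fin m := ⟨0, by omega⟩
      have h2 : ∀ w, sympForm m F w (Pi.single (Sum.inl i₀) 1) = 0 := by
        intro w
        have := h1 w (Pi.single (Sum.inl i₀) 1)
        exact (mul_eq_zero.1 ((mul_eq_zero.1 this).resolve_left htwo)).resolve_left hc0
      have h3 := congrFun (eq_zero_of_forall_sympForm_left h2) (Sum.inl i₀)
      rw [Pi.single_eq_same] at h3
      exact one_ne_zero h3
    rw [hc0, zero_smul] at hc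
    exact hκ0 hc
  -- K is spanned by 1 and κ
  have hspan : ∀ x ∈ K, ∃ α β : F, x = α • (1 : Matrix _ _ F) + β • κ := by
    intro x hx
    have hli : LinearIndependent F ![(1 : K), ⟨κ, hκK⟩] := by
      rw [LinearIndependent.pair_iff]
      intro s t hst
      have h1 := congrArg Subtype.val hst
      change s • (1 : Matrix _ _ F) + t • κ = 0 at h1
      have ht : t = 0 := by
        by_contra ht
        apply hns (-(t⁻¹ * s))
        have h2 : κ = t⁻¹ • (t • κ) := by rw [smul_smul, inv_mul_cancel₀ ht, one_smul]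
        rw [h2, eq_neg_of_add_eq_zero_right h1, smul_neg, smul_smul, neg_smul]
      refine ⟨?_, ht⟩
      rw [ht, zero_smul, add_zero] at h1
      by_contra hs
      have h2 := congrFun (congrFun h1 (Sum.inl ⟨0, by omega⟩)) (Sum.inl ⟨0, by omega⟩)
      simp at h2
      exact hs h2
    have hfin : FiniteDimensional F K := Module.finite_of_finrank_pos (by
      rw [hK.finrank_eq]; norm_num)
    have hsp := hli.span_eq_top_of_card_eq_finrank (by
      rw [hK.finrank_eq]; simp)
    have hx' : (⟨x, hx⟩ : K) ∈ Submodule.span F (Set.range ![(1 : K), ⟨κ, hκK⟩]) := by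
      rw [hsp]; trivial
    rw [Submodule.mem_span_range_iff_exists_fun] at hx'
    obtain ⟨c, hc⟩ := hx'
    rw [Fin.sum_univ_two] at hc
    exact ⟨c 0, c 1, (congrArg Subtype.val hc).symm⟩
  obtain ⟨d, b, hdb⟩ := hspan (κ * κ) (K.mul_mem hκK hκK)
  have hb : b = 0 := by
    by_contra hb
    -- κ² is self-adjoint
    have h1 : ∀ u v, sympForm m F ((κ * κ) *ᵥ u) v = sympForm m F u ((κ * κ) *ᵥ v) := by
      intro u v
      rw [← mulVec_mulVec, ← mulVec_mulVec, hκadj, hκadj, neg_neg]
    have h2 : ∀ u v, sympForm m F u (κ *ᵥ v) = 0 := by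
      intro u v
      have := h1 u v
      rw [hdb, add_mulVec, add_mulVec, smul_mulVec, smul_mulVec, smul_mulVec, smul_mulVec,
        one_mulVec, one_mulVec, sympForm_add_left, sympForm_add_right, sympForm_smul_left,
        sympForm_smul_left, sympForm_smul_right, sympForm_smul_right, hκadj] at this
      have h3 : 2 * (b * sympForm m F u (κ *ᵥ v)) = 0 := by linear_combination -this
      exact (mul_eq_zero.1 ((mul_eq_zero.1 h3).resolve_left htwo)).resolve_left hb
    apply hκ0
    apply Matrix.mulVec_injective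
    funext v
    rw [zero_mulVec]
    exact eq_zero_of_forall_sympForm_left fun w => h2 w v
  rw [hb, zero_smul, add_zero] at hdb
  have hsq : ∀ x, κ *ᵥ (κ *ᵥ x) = d • x := by
    intro x
    rw [mulVec_mulVec, hdb, smul_mulVec, one_mulVec]
  have hnsq : ∀ c : F, c * c ≠ d := by
    intro c hc
    have h1 : (κ - c • 1) * (κ + c • 1) = 0 := by
      rw [sub_mul, mul_add, mul_add, hdb, ← hc]
      simp only [Matrix.mul_smul, Matrix.smul_mul, mul_one, one_mul]
      module
    have h2 : κ - c • 1 ≠ 0 := sub_ne_zero.2 (hns c)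
    obtain ⟨y, hy, hxy⟩ := hK.inv _ (K.sub_mem hκK (K.smul_mem K.one_mem c)) h2
    have h3 : κ + c • 1 = 0 := by
      have h4 : y * (κ - c • 1) = 1 := by
        rw [hK.comm y hy _ (K.sub_mem hκK (K.smul_mem K.one_mem c)), hxy]
      calc κ + c • 1 = (y * (κ - c • 1)) * (κ + c • 1) := by rw [h4, one_mul]
        _ = 0 := by rw [mul_assoc, h1, mul_zero]
    apply hns (-c)
    rw [neg_smul]
    exact eq_neg_of_add_eq_zero_left h3
  have hd0 : d ≠ 0 := by
    rintro rfl
    exact hnsq 0 (mul_zero 0)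
  -- the hypotheses
  have h : Hyp8 (sympBilin m F) (Matrix.toLin' κ) d (M.map toEq.toMonoidHom) := by
    refine ⟨sympForm_self, ?_, htwo, ?_, hnsq, ?_, ?_, ?_, ?_, ?_, ?_⟩
    · intro x hx
      by_contra hcon
      push Not at hcon
      exact hx (eq_zero_of_forall_sympForm_right hcon)
    · intro x
      rw [toLin'_apply, toLin'_apply, hsq]
    · intro e
      obtain ⟨α, β, hαβ⟩ := exists_quad hodd one_ne_zero (neg_ne_zero.2 hd0) e
      exact ⟨α, β, by linear_combination hαβ⟩
    · intro e
      obtain ⟨α, β, hαβ⟩ := exists_quad hodd (one_ne_zero (α := F)) one_ne_zero e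
      exact ⟨α, β, by linear_combination hαβ⟩
    · intro x y
      rw [toLin'_apply, toLin'_apply]
      exact hκadj x y
    · rw [finrank_fintype_fun_eq_card, Fintype.card_sum, Fintype.card_fin]
      omega
    · rintro _ ⟨g, hg, rfl⟩ x y
      exact hMS hg x y
    · intro v c hv
      rw [toLin'_apply] at hv
      have hv' : sympForm m F (κ *ᵥ v) v = 0 := hv
      have hv'' : sympForm m F v (κ *ᵥ v) = 0 := by rw [sympForm_swap, hv', neg_zero]
      rw [has_map_iff]
      refine ⟨spt (κ *ᵥ v) c * spt v (-(c * d)), hHM ⟨?_, (spGL m F).mul_mem (spt_mem _ _)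
        (spt_mem _ _)⟩, ?_⟩
      · apply mem_subalgebraNormalizer_of_semilinear
        intro x hx
        refine ⟨x, hx, fun y => ?_⟩
        obtain ⟨α, β, rfl⟩ := hspan x hx
        rw [Units.val_mul, ← mulVec_mulVec, ← mulVec_mulVec]
        simp only [spt_mulVec, add_mulVec, smul_mulVec, one_mulVec, mulVec_add, mulVec_smul,
          sympForm_add_left, sympForm_smul_left, hκadj, hsq, hv', hv'', sympForm_smul_right]
        module
      · intro x
        rw [Units.val_mul, ← mulVec_mulVec, spt_mulVec, spt_mulVec, ut, toLin'_apply]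
        change _ = x + (c * sympForm m F x (κ *ᵥ v)) • κ *ᵥ v - (c * d * sympForm m F x v) • v
        rw [sympForm_add_left, sympForm_smul_left, hv'']
        module
  rcases h.alternative with h1 | h1
  · left
    intro g hg
    apply mem_subalgebraNormalizer_of_semilinear
    intro x hx
    obtain ⟨α, β, hαβ⟩ := h1 (toEq g) ⟨g, hg, rfl⟩
    obtain ⟨s, t, rfl⟩ := hspan x hx
    refine ⟨s • (1 : Matrix _ _ F) + t • (α • (1 : Matrix _ _ F) + β • κ), ?_, fun y => ?_⟩
    · exact K.add_mem (K.smul_mem K.one_mem _) (K.smul_mem (K.add_mem (K.smul_mem K.one_mem _)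
        (K.smul_mem hκK _)) _)
    · have h2 := hαβ y
      rw [toLin'_apply, toLin'_apply, toEq_apply, toEq_apply] at h2
      simp only [add_mulVec, smul_mulVec, one_mulVec, mulVec_add, mulVec_smul, h2]
  · right
    apply spGL_le_of_has
    exact fun v c => h1 v c

end Cfsg.Agent.H875.UnitSp
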